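import Cfsg.Agent.OddStep.Interface
import Cfsg.Agent.Huppert.Cases
import Cfsg.Agent.MinNormal.Primitive
import Cfsg.Agent.PermGroups.Homogeneous
import Cfsg.Agent.PermGroups.RegularNormal
import Mathlib.FieldTheory.Finite.GaloisField
import Cfsg.Agent.Eq.Def_Perm

/-!
# Kantor's theorem on 2-homogeneous groups that are not 2-transitive

Given the odd order theorem, such a group consists of semi-affine maps of a finite field with
`q ≡ 3 (mod 4)` elements and contains the translations.
-/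

set_option autoImplicit false

open MulAction

namespace CfsgLib.OddCons.Kantor

universe u v

variable {G : Type u} [Group G] [Finite G] {X : Type v} [Finite X] [MulAction G X] [FaithfulSMul G X]

/-- A half orbit structure forces `3 (mod 4)`. -/
theorem card_mod_four {D : Type*} [Group D] [Finite D] {p : ℕ} [Fact p.Prime] (hp2 : p ≠ 2)
    {V : Type*} [AddCommGroup V] [Module (ZMod p) V] [Finite V] [Nontrivial V]
    (hD : Odd (Nat.card D)) (ρ : D →* (V ≃ₗ[ZMod p] V))
    (htr : ∀ x y : V, x ≠ 0 → y ≠ 0 → ∃ d : D, ρ d x = y ∨ ρ d x = -y) :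
    Nat.card V % 4 = 3 := by
  classical
  haveI := Fintype.ofFinite V
  letI : MulAction D V := MulAction.compHom V ρ
  have hsm : ∀ (d : D) (x : V), d • x = ρ d x := fun d x => rfl
  obtain ⟨x, hx⟩ := exists_ne (0 : V)
  set O : Set V := orbit D x with hO
  have hodd : Odd O.ncard := by
    refine hD.of_dvd_nat ?_
    rw [hO, ← index_stabilizer]
    exact (stabilizer D x).index_dvd_card
  have h2 : (2 : ZMod p) ≠ 0 := by
    intro h
    have h' : ((2 : ℕ) : ZMod p) = 0 := by exact_mod_cast h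
    exact hp2 ((Nat.prime_dvd_prime_iff_eq Fact.out Nat.prime_two).1
      ((CharP.cast_eq_zero_iff (ZMod p) p 2).1 h'))
  have hneg : ∀ d : D, ρ d x ≠ -x := by
    intro d hd
    have hpow : ∀ k : ℕ, ρ (d ^ k) x = ((-1 : ZMod p) ^ k) • x := by
      intro k
      induction k with
      | zero => simp
      | succ k ih =>
        rw [pow_succ', map_mul, LinearEquiv.mul_apply, ih, map_smul, hd, pow_succ, mul_smul,
          neg_one_smul]
    have h := hpow (Nat.card D)
    rw [pow_card_eq_one', map_one, hD.neg_one_pow, neg_one_smul, LinearEquiv.coe_one, id_eq] at h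
    have h0 : (2 : ZMod p) • x = 0 := by
      rw [two_smul]
      nth_rewrite 1 [h]
      exact neg_add_cancel x
    rcases smul_eq_zero.1 h0 with h' | h'
    · exact h2 h'
    · exact hx h'
  have hdisj : Disjoint O ((fun y => -y) '' O) := by
    rw [Set.disjoint_left]
    rintro y hy ⟨z, hz, rfl⟩
    obtain ⟨d, rfl⟩ := hz
    obtain ⟨e, he⟩ := hy
    apply hneg (d⁻¹ * e)
    have he' : ρ e x = -ρ d x := he
    rw [map_mul, LinearEquiv.mul_apply, he', map_neg, ← LinearEquiv.mul_apply, ← map_mul,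
      inv_mul_cancel, map_one, LinearEquiv.coe_one, id_eq]
  have hun : O ∪ (fun y => -y) '' O = {(0 : V)}ᶜ := by
    ext y
    constructor
    · rintro (⟨d, rfl⟩ | ⟨z, ⟨d, rfl⟩, rfl⟩)
      · exact fun h => hx ((ρ d).map_eq_zero_iff.1 h)
      · exact fun h => hx ((ρ d).map_eq_zero_iff.1 (neg_eq_zero.1 h))
    · intro hy
      obtain ⟨d, hd | hd⟩ := htr x y hx hy
      · exact Or.inl ⟨d, hd⟩
      · exact Or.inr ⟨ρ d x, ⟨d, rfl⟩, by simp [hd]⟩
  have hcard := congrArg Set.ncard hun
  rw [Set.ncard_union_eq hdisj, Set.ncard_image_of_injective O neg_injective, Set.ncard_compl,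
    Set.ncard_singleton] at hcard
  have : 1 < Nat.card V := Finite.one_lt_card
  obtain ⟨k, hk⟩ := hodd
  omega

/-- A linear group of odd order that is transitive up to sign on the non-zero vectors is
semilinear. -/
theorem semilinear_of_signed (hFT : CfsgLib.OddStep.P0205.{u}) {D : Type u} [Group D] [Finite D]
    {p : ℕ} [Fact p.Prime] (hp2 : p ≠ 2)
    {V : Type u} [AddCommGroup V] [Module (ZMod p) V] [Finite V] [Nontrivial V]
    (hD : Odd (Nat.card D)) (ρ : D →* (V ≃ₗ[ZMod p] V))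
    (htr : ∀ x y : V, x ≠ 0 → y ≠ 0 → ∃ d : D, ρ d x = y ∨ ρ d x = -y) :
    ∃ (F : Type) (_ : Field F) (_ : Fintype F) (e : V ≃+ F),
      ∀ d : D, ∃ (a : Fˣ) (σ : F ≃+* F), ∀ x : V, e (ρ d x) = (a : F) * σ (e x) := by
  classical
  haveI : Group.IsSolvable D := hFT hD
  let neg : (ZMod p)ˣ →* (V ≃ₗ[ZMod p] V) := DistribMulAction.toModuleAut (ZMod p) V
  let ρ' : D × (ZMod p)ˣ →* (V ≃ₗ[ZMod p] V) := MonoidHom.noncommCoprod ρ neg fun d c =>
    LinearEquiv.ext fun x => by
      change ρ d ((c : ZMod p) • x) = (c : ZMod p) • ρ d x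
      exact map_smul _ _ _
  have hsol : Group.IsSolvable ρ'.range :=
    Group.isSolvable_of_surjective (f := ρ'.rangeRestrict) ρ'.rangeRestrict_surjective
  have happ : ∀ (d : D) (c : (ZMod p)ˣ) (x : V), ρ' (d, c) x = ρ d ((c : ZMod p) • x) :=
    fun d c x => rfl
  have htv : CfsgLib.PermGroups.FPFLinear.TransOnVectors ρ'.range := by
    intro x y hx hy
    obtain ⟨d, hd | hd⟩ := htr x y hx hy
    · exact ⟨⟨ρ' (d, 1), _, rfl⟩, by rw [happ, Units.val_one, one_smul, hd]⟩
    · exact ⟨⟨ρ' (d, -1), _, rfl⟩, by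
        rw [happ, Units.val_neg, Units.val_one, neg_one_smul, map_neg, hd, neg_neg]⟩
  rcases CfsgLib.Huppert.semilinear_or_exceptional htv hsol with ⟨F, iF, iT, e, he⟩ | h
  · refine ⟨F, iF, iT, e, fun d => ?_⟩
    obtain ⟨a, σ, ha⟩ := he ⟨ρ' (d, 1), _, rfl⟩
    have ha' : ∀ x : V, e (ρ d x) = a * σ (e x) := fun x => by
      simpa [happ] using ha x
    obtain ⟨x, hx⟩ := exists_ne (0 : V)
    have hane : a ≠ 0 := by
      intro h0
      have h1 := ha' x
      rw [h0, zero_mul] at h1
      exact hx ((ρ d).map_eq_zero_iff.1 (e.map_eq_zero_iff.1 h1))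
    exact ⟨Units.mk0 a hane, σ, ha'⟩
  · exfalso
    have h4 := card_mod_four hp2 hD ρ htr
    simp only [Set.mem_insert_iff, Set.mem_singleton_iff] at h
    omega

/-- The core of Kantor's theorem: a regular elementary abelian normal subgroup given as a
vector space `V` with its translations `τ` and the action `cj` of a point stabiliser. -/
theorem classify_affine (hFT : CfsgLib.OddStep.P0205.{u}) {p : ℕ} [Fact p.Prime] (hp2 : p ≠ 2)
    {V : Type u} [AddCommGroup V] [Module (ZMod p) V] [Finite V] [Nontrivial V] {f : ℕ}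
    (hV : Nat.card V = p ^ f) (pos : V ≃ X) (τ : V → G)
    (hadd : ∀ x y : V, pos (x + y) = τ x • pos y)
    (cj : G → V ≃+ V) (hcj : ∀ g : G, g • pos 0 = pos 0 → ∀ x : V, pos (cj g x) = g • pos x)
    (hh : ∀ a b c d : X, a ≠ b → c ≠ d →
      ∃ g : G, (g • a = c ∧ g • b = d) ∨ (g • a = d ∧ g • b = c))
    (hG : Odd (Nat.card G)) :
    ∃ (p f : ℕ) (_ : Fact p.Prime), p ≠ 2 ∧ Nat.card X = p ^ f ∧ p ^ f % 4 = 3 ∧
      ∃ e : X ≃ GaloisField p f,
        (∀ g : G, ∃ a : (GaloisField p f)ˣ, ∃ b : GaloisField p f,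
          ∃ σ : GaloisField p f ≃+* GaloisField p f,
            ∀ x : X, e (g • x) = (a : GaloisField p f) * σ (e x) + b) ∧
        ∀ b : GaloisField p f, ∃ g : G, ∀ x : X, e (g • x) = e x + b := by
  classical
  let ρ : stabilizer G (pos 0) →* (V ≃ₗ[ZMod p] V) :=
    { toFun := fun d => (cj d).toLinearEquiv fun c x => ZMod.map_smul (cj d) c x
      map_one' := LinearEquiv.ext fun x => pos.injective (by
        change pos (cj ((1 : stabilizer G (pos 0)) : G) x) = pos x
        rw [hcj _ (1 : stabilizer G (pos 0)).2 x, Subgroup.coe_one, one_smul])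
      map_mul' := fun d e => LinearEquiv.ext fun x => pos.injective (by
        change pos (cj ((d * e : stabilizer G (pos 0)) : G) x) = pos (cj (d : G) (cj (e : G) x))
        rw [hcj _ (d * e).2, hcj _ d.2, hcj _ e.2, ← mul_smul]
        rfl) }
  have hρ : ∀ (d : stabilizer G (pos 0)) (x : V), pos (ρ d x) = (d : G) • pos x :=
    fun d x => hcj _ d.2 x
  have htr : ∀ x y : V, x ≠ 0 → y ≠ 0 → ∃ d, ρ d x = y ∨ ρ d x = -y := by
    intro x y hx hy
    have hxo : pos 0 ≠ pos x := fun h => hx (pos.injective h).symm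
    have hyo : pos 0 ≠ pos y := fun h => hy (pos.injective h).symm
    obtain ⟨g, ⟨h1, h2⟩ | ⟨h1, h2⟩⟩ := hh _ _ _ _ hxo hyo
    · exact ⟨⟨g, h1⟩, Or.inl (pos.injective (by rw [hρ]; exact h2))⟩
    · have hy0 : τ y • pos 0 = pos y := by rw [← hadd, add_zero]
      have hd : ((τ y)⁻¹ * g) • pos 0 = pos 0 := by rw [mul_smul, h1, inv_smul_eq_iff, hy0]
      refine ⟨⟨_, hd⟩, Or.inr ?_⟩
      have h3 : pos (y + ρ ⟨_, hd⟩ x) = pos 0 := by
        rw [hadd, hρ, ← mul_smul]
        show (τ y * ((τ y)⁻¹ * g)) • pos x = _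
        rw [mul_inv_cancel_left, h2]
      exact eq_neg_of_add_eq_zero_right (pos.injective h3)
  have hD : Odd (Nat.card (stabilizer G (pos 0))) :=
    hG.of_dvd_nat (stabilizer G (pos 0)).card_subgroup_dvd_card
  obtain ⟨F, iF, iT, e, he⟩ := semilinear_of_signed hFT hp2 hD ρ htr
  have hXc : Nat.card X = p ^ f := (Nat.card_congr pos).symm.trans hV
  have h4 : p ^ f % 4 = 3 := hV ▸ card_mod_four hp2 hD ρ htr
  have hf0 : f ≠ 0 := by
    rintro rfl
    simp at h4
  haveI : Fintype (GaloisField p f) := Fintype.ofFinite _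
  let r : F ≃+* GaloisField p f := FiniteField.ringEquivOfCardEq (by
    rw [← Nat.card_eq_fintype_card, ← Nat.card_eq_fintype_card, ← Nat.card_congr e.toEquiv, hV,
      GaloisField.card p f hf0])
  refine ⟨p, f, inferInstance, hp2, hXc, h4, pos.symm.trans (e.toEquiv.trans r.toEquiv), ?_, ?_⟩
  · intro g
    obtain ⟨n, hn⟩ := pos.surjective (g • pos 0)
    have hn0 : τ n • pos 0 = pos n := by rw [← hadd, add_zero]
    have hd : ((τ n)⁻¹ * g) • pos 0 = pos 0 := by rw [mul_smul, ← hn, inv_smul_eq_iff, hn0]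
    obtain ⟨a, σ, ha⟩ := he ⟨_, hd⟩
    refine ⟨Units.map (r : F →* GaloisField p f) a, r (e n), (r.symm.trans σ).trans r, fun x => ?_⟩
    obtain ⟨x, rfl⟩ := pos.surjective x
    have h1 : g • pos x = pos (n + ρ ⟨_, hd⟩ x) := by
      rw [hadd, hρ, ← mul_smul]
      show _ = (τ n * ((τ n)⁻¹ * g)) • pos x
      rw [mul_inv_cancel_left]
    simp [h1, ha, add_comm]
  · intro b
    refine ⟨τ (e.symm (r.symm b)), fun x => ?_⟩
    obtain ⟨x, rfl⟩ := pos.surjective x
    rw [← hadd]
    simp [add_comm]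

/-- Kantor's theorem, given the odd order theorem. -/
theorem classify (hFT : CfsgLib.OddStep.P0205.{u}) [Nontrivial G]
    (hh : ∀ a b c d : X, a ≠ b → c ≠ d →
      ∃ g : G, (g • a = c ∧ g • b = d) ∨ (g • a = d ∧ g • b = c))
    (hX : ∃ a b c : X, a ≠ b ∧ a ≠ c ∧ b ≠ c) (hG : Odd (Nat.card G)) :
    ∃ (p f : ℕ) (_ : Fact p.Prime), p ≠ 2 ∧ Nat.card X = p ^ f ∧ p ^ f % 4 = 3 ∧
      ∃ e : X ≃ GaloisField p f,
        (∀ g : G, ∃ a : (GaloisField p f)ˣ, ∃ b : GaloisField p f,
          ∃ σ : GaloisField p f ≃+* GaloisField p f,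
            ∀ x : X, e (g • x) = (a : GaloisField p f) * σ (e x) + b) ∧
        ∀ b : GaloisField p f, ∃ g : G, ∀ x : X, e (g • x) = e x + b := by
  classical
  haveI : IsPreprimitive G X := CfsgLib.PermGroups.isPreprimitive_of_homogeneous hh hX
  haveI : Group.IsSolvable G := hFT hG
  obtain ⟨o, b₀, c₀, hob, -, -⟩ := hX
  obtain ⟨N, hN⟩ := CfsgLib.MinNormal.exists_isMinNormal (G := G)
  haveI := hN.normal
  haveI := CfsgLib.MinNormal.isPretransitive_of_normal (X := X) hN.normal hN.ne_bot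
  obtain ⟨p, hp, hab, hpg, hexp⟩ := hN.exists_elementary_of_isSolvable inferInstance
  haveI := Fact.mk hp
  have hstab := CfsgLib.MinNormal.stabilizer_eq_bot_of_commutative (N := N) hab o
  letI : CommGroup N :=
    { (inferInstance : Group N) with mul_comm := fun x y => hab.is_comm.comm x y }
  letI : Module (ZMod p) (Additive N) := AddCommGroup.zmodModule fun x =>
    show Additive.ofMul ((Additive.toMul x) ^ p) = Additive.ofMul 1 from
      congrArg Additive.ofMul (Subtype.ext (by simpa using hexp _ (Additive.toMul x).2))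
  let pos : Additive N ≃ X := Equiv.ofBijective (fun x => ((Additive.toMul x : N) : G) • o)
    ⟨fun x y h => Additive.toMul.injective (CfsgLib.PermGroups.orbitMap_injective hstab h),
      fun y => by
        obtain ⟨n, hn⟩ := exists_smul_eq N o y
        exact ⟨Additive.ofMul n, hn⟩⟩
  have hpos : ∀ x, pos x = ((Additive.toMul x : N) : G) • o := fun x => rfl
  have h0 : pos 0 = o := by rw [hpos]; exact one_smul G o
  haveI : Nontrivial (Additive N) := ⟨⟨pos.symm o, pos.symm b₀, pos.symm.injective.ne hob⟩⟩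
  have hp2 : p ≠ 2 := by
    rintro rfl
    haveI : Nontrivial N := Additive.toMul.injective.nontrivial (α := Additive N)
    obtain ⟨k, hk⟩ := IsPGroup.iff_card.1 hpg
    have h1 : 1 < Nat.card N := Finite.one_lt_card
    have h2 : 2 ∣ Nat.card N := by
      rw [hk]
      exact dvd_pow_self 2 (fun e => by rw [hk, e] at h1; simp at h1)
    exact hG.not_two_dvd_nat (h2.trans N.card_subgroup_dvd_card)
  obtain ⟨f, hf⟩ := IsPGroup.iff_card.1 hpg
  refine classify_affine hFT hp2 (V := Additive N) (f := f) hf pos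
    (fun x => ((Additive.toMul x : N) : G)) (fun x y => ?_)
    (fun g => MulEquiv.toAdditive (MulAut.conjNormal g : MulAut N)) (fun g hg x => ?_) hh hG
  · rw [hpos, hpos, ← mul_smul]
    rfl
  · rw [h0] at hg
    rw [hpos, hpos, CfsgLib.PermGroups.stabilizer_smul_smul (mem_stabilizer_iff.2 hg)]
    rfl

/-- Statement S0737, given the odd order theorem. -/
theorem kantor (hFT : CfsgLib.OddStep.P0205.{u}) {α : Type u} [Fintype α] [DecidableEq α]
    (G : Subgroup (Equiv.Perm α)) (hne : G ≠ ⊥)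
    (h2 : MulAction.IsPretransitive G (Set.powersetCard α 2))
    (hn2 : ¬ MulAction.IsMultiplyPretransitive G α 2) :
    Odd (Nat.card G) ∧ ∃ (p f : ℕ) (_ : Fact p.Prime), p ≠ 2 ∧ Fintype.card α = p ^ f ∧
      p ^ f % 4 = 3 ∧ ∃ e : α ≃ GaloisField p f,
        (∀ g : G, e.symm.trans (((g : Equiv.Perm α)).trans e) ∈
          Cfsg.semiaffineGroup (GaloisField p f)) ∧
        ∀ b : GaloisField p f, ∃ g : G, ∀ x : α, e ((g : Equiv.Perm α) x) = e x + b := by
  classical
  haveI : Nontrivial G := (Subgroup.nontrivial_iff_ne_bot G).2 hne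
  have hh := CfsgLib.PermGroups.homogeneous_of_isPretransitive_powersetCard h2
  have hodd : Odd (Nat.card G) := Nat.not_even_iff_odd.1 fun he =>
    hn2 (CfsgLib.PermGroups.two_transitive_of_homogeneous_even hh he)
  have hX : ∃ a b c : α, a ≠ b ∧ a ≠ c ∧ b ≠ c := by
    refine Fintype.two_lt_card_iff.1 ?_
    by_contra hle
    push Not at hle
    have hd : Nat.card G ∣ (Fintype.card α).factorial := by
      rw [← Fintype.card_perm, ← Nat.card_eq_fintype_card]
      exact G.card_subgroup_dvd_card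
    have h1 : 1 < Nat.card G := Finite.one_lt_card
    obtain ⟨k, hk⟩ := hodd
    have h3 := (Nat.le_of_dvd (Nat.factorial_pos _) hd).trans (Nat.factorial_le hle)
    simp only [Nat.factorial] at h3
    omega
  obtain ⟨p, f, hp, hp2, hc, h4, e, he, hb⟩ := classify hFT hh hX hodd
  refine ⟨hodd, p, f, hp, hp2, by rw [← Nat.card_eq_fintype_card]; exact hc, h4, e, fun g => ?_, hb⟩
  obtain ⟨a, b, σ, hg⟩ := he g
  refine ⟨a, b, σ, fun x => ?_⟩
  show e ((g : Equiv.Perm α) (e.symm x)) = _
  rw [show (g : Equiv.Perm α) (e.symm x) = g • e.symm x from rfl, hg, Equiv.apply_symm_apply]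

end CfsgLib.OddCons.Kantor
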