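import Cfsg.Agent.OddCons.Basic
import Cfsg.Agent.TwoGroup.UniqueInvolution
import Cfsg.Agent.FusionTwo.WreathedSubgroups
import Cfsg.Agent.BaerSuzuki.Classes
import Cfsg.Agent.S0201

/-!
# Klein four subgroups of simple groups

Given the odd order theorem, a non-cyclic simple group contains a four group.
-/

set_option autoImplicit false

namespace CfsgLib.OddCons.KleinFour

universe u

variable {G : Type u} [Group G] [Finite G] [IsSimpleGroup G]

theorem exists_isKleinFour (hFT : CfsgLib.OddStep.P0205.{u}) (hG : ¬ IsCyclic G) :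
    ∃ E : Subgroup G, IsKleinFour E := by
  haveI : Fact (Nat.Prime 2) := ⟨Nat.prime_two⟩
  have hna : ¬ IsMulCommutative G := fun h => hG (by
    letI : CommGroup G := { ‹Group G› with mul_comm := h.is_comm.comm }
    exact IsSimpleGroup.isCyclic)
  have heven := Basic.even_card_of_simple hFT hna
  by_contra hno
  set S : Sylow 2 G := default
  obtain ⟨k, hk⟩ := IsPGroup.iff_card.1 S.isPGroup'
  have h2S : 2 ∣ Nat.card S := S.dvd_card_of_dvd_card heven.two_dvd
  haveI : Nontrivial (S : Subgroup G) := by
    rw [← Finite.one_lt_card_iff_nontrivial]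
    exact lt_of_lt_of_le one_lt_two (Nat.le_of_dvd Nat.card_pos h2S)
  -- an involution in the centre of the Sylow subgroup
  haveI := S.isPGroup'.center_nontrivial
  obtain ⟨z, hz⟩ := exists_prime_orderOf_dvd_card' (G := Subgroup.center (S : Subgroup G)) 2
    ((S.isPGroup'.to_subgroup (Subgroup.center (S : Subgroup G))).card_eq_or_dvd.resolve_left
      (by rw [← ne_eq]; exact (Finite.one_lt_card).ne'))
  rw [← Subgroup.orderOf_coe, ← Subgroup.orderOf_coe] at hz
  have huniq : CfsgLib.TwoGroup.AtMostOneInvolution (S : Subgroup G) := by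
    have key : ∀ x : (S : Subgroup G), orderOf x = 2 → x = z.1 := by
      intro x hx
      rw [← Subgroup.orderOf_coe] at hx
      by_contra hne
      have h1 : ∀ y : G, orderOf y = 2 → y * y = 1 ∧ y ≠ 1 := fun y hy =>
        ⟨by rw [← pow_two, ← hy, pow_orderOf_eq_one], fun h => by simp [h] at hy⟩
      refine hno ⟨_, FusionTwo.isKleinFour_fourSubgroup (a := (x : G)) (b := ((z.1 : (S : Subgroup G)) : G))
        (ha := (h1 _ hx).1) (hb := (h1 _ hz).1)
        (hab := congrArg Subtype.val (Subgroup.mem_center_iff.1 z.2 x))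
        (h1 _ hx).2 (h1 _ hz).2 fun h => hne (Subtype.ext h)⟩
    exact fun x y hx hy => (key x hx).trans (key y hy).symm
  rcases CfsgLib.TwoGroup.cyclic_or_quaternion S.isPGroup' huniq with hc | ⟨n, hn, ⟨e⟩⟩
  · -- cyclic: index two
    obtain ⟨H, hH⟩ := CfsgLib.BaerSuzuki.exists_index_two_of_cyclic heven S hc
    haveI := Subgroup.normal_of_index_eq_two hH
    rcases IsSimpleGroup.eq_bot_or_eq_top_of_normal H inferInstance with rfl | rfl
    · rw [Subgroup.index_bot] at hH
      exact hG (isCyclic_of_prime_card hH)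
    · rw [Subgroup.index_top] at hH
      exact absurd hH (by norm_num)
  · -- quaternion: Brauer–Suzuki
    obtain ⟨m, rfl⟩ := Nat.exists_eq_add_of_le hn
    rw [add_comm] at e
    have hO : ∀ N : Subgroup G, N.Normal → Odd (Nat.card N) → N = ⊥ := by
      intro N hN hodd
      refine (IsSimpleGroup.eq_bot_or_eq_top_of_normal N hN).resolve_right ?_
      rintro rfl
      rw [Subgroup.card_top] at hodd
      exact Nat.not_even_iff_odd.2 hodd heven
    have hc := Cfsg.Agent.S0201.result S m e hO
    rcases IsSimpleGroup.eq_bot_or_eq_top_of_normal (Subgroup.center G) inferInstance with h | h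
    · rw [h, Subgroup.card_bot] at hc
      norm_num at hc
    · exact hna ⟨⟨fun a b => (Subgroup.mem_center_iff.1 (h ▸ Subgroup.mem_top b) a)⟩⟩

end CfsgLib.OddCons.KleinFour
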