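import Cfsg.Agent.OddCons.ComponentTrichotomy

/-!
# Standard subgroups in a group with trivial core

With the odd order theorem as hypothesis: a standard subgroup is normal, or `E(G)` is simple, or is
the product of two simple components exchanged by the centralizing involution.
-/

set_option autoImplicit false
set_option maxHeartbeats 1000000

open Cfsg
open scoped commutatorElement Pointwise

namespace CfsgLib.OddCons.StandardTrichotomy

open CfsgLib.Cores

universe u

theorem perfect_commutator {G : Type u} [Group G] {H : Subgroup G} (h : IsQuasisimple H) :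
    ⁅H, H⁆ = H := by
  haveI := h.1
  rw [← Subgroup.map_subtype_commutator, Group.IsPerfect.commutator_eq_top,
    ← MonoidHom.range_eq_map, Subgroup.range_subtype]

theorem ne_bot_of_quasisimple {G : Type u} [Group G] {H : Subgroup G} (h : IsQuasisimple H) :
    H ≠ ⊥ := by
  intro e
  subst e
  haveI := h.2
  exact not_nontrivial (((⊥ : Subgroup G) : Type u) ⧸ Subgroup.center ((⊥ : Subgroup G) : Type u))
    inferInstance

/-- A normal subgroup of a quasisimple group which is not central is everything. -/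
theorem eq_of_normal_le {G : Type u} [Group G] {A D : Subgroup G} (hD : IsQuasisimple D)
    (hA : IsQuasisimple A) (hle : A ≤ D) (hn : D ≤ Subgroup.normalizer (A : Set G)) : A = D := by
  haveI : (A.subgroupOf D).Normal := (Subgroup.normal_subgroupOf_iff_le_normalizer hle).2 hn
  refine (eq_or_le_center_of_le_component hD hle (inferInstance : (A.subgroupOf D).Normal).isSubnormal).resolve_right fun h => ?_
  refine ne_bot_of_quasisimple hA ?_
  rw [← perfect_commutator hA, eq_bot_iff, Subgroup.commutator_le]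
  intro a ha b hb
  obtain ⟨a', ha', rfl⟩ := h ha
  rw [Subgroup.mem_bot, commutatorElement_eq_one_iff_mul_comm]
  exact congrArg Subtype.val (Subgroup.mem_center_iff.1 ha' ⟨b, hle hb⟩).symm

/-- **Standard subgroups in a core-free group.** -/
theorem trichotomy (hFT : CfsgLib.OddStep.P0205.{u}) {G : Type u} [Group G] [Finite G]
    {A : Subgroup G} (hA : IsStandardSubgroup A) (hO : oddCore G = ⊥) {t : G} (ht : orderOf t = 2)
    (htA : t ∈ Subgroup.centralizer (A : Set G)) :
    A.Normal ∨
      (∃ X : Subgroup G, IsSimpleGroup ↥X ∧ ¬ IsMulCommutative ↥X ∧ Nonempty (↥X ≃* ↥A) ∧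
        (∀ a ∈ X, ∀ b ∈ X.map (MulAut.conj t).toMonoidHom, a * b = b * a) ∧
        X ⊓ X.map (MulAut.conj t).toMonoidHom = ⊥ ∧
        X ⊔ X.map (MulAut.conj t).toMonoidHom = layer G ∧
        Subgroup.centralizer (A : Set G) = Subgroup.zpowers t) ∨
      (A ≤ layer G ∧ IsSimpleGroup ↥(layer G) ∧ ¬ IsMulCommutative ↥(layer G)) := by
  haveI : Fact (Nat.Prime 2) := ⟨Nat.prime_two⟩
  obtain ⟨hAq, ⟨-, htight⟩, hnc, hNeq⟩ := hA
  set K := Subgroup.centralizer (A : Set G) with hK
  set C := Subgroup.centralizer ({t} : Set G) with hC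
  -- the tool
  have key : ∀ W : Subgroup G, W ≤ K → Even (Nat.card W) → ∀ d : G, (∀ w ∈ W, d * w = w * d) →
      d ∈ Subgroup.normalizer (A : Set G) := by
    intro W hW heven d hd
    rw [hNeq]
    by_contra hdN
    refine Nat.not_even_iff_odd.2 (htight d hdN) ?_
    refine even_iff_two_dvd.2 (heven.two_dvd.trans (Subgroup.card_dvd_of_le ?_))
    refine le_inf hW fun w hw => ⟨w, hW hw, ?_⟩
    show d * w * d⁻¹ = w
    rw [hd w hw, mul_inv_cancel_right]
  have hAC : A ≤ C := fun a ha => Subgroup.mem_centralizer_singleton_iff.2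
    (Subgroup.mem_centralizer_iff.1 htA a ha)
  have hCN : C ≤ Subgroup.normalizer (A : Set G) := fun g hg =>
    key (Subgroup.zpowers t) (Subgroup.zpowers_le.2 htA)
      (by rw [Nat.card_zpowers, ht]; exact even_two) g fun w hw => by
      obtain ⟨i, rfl⟩ := hw
      exact ((show Commute g t from Subgroup.mem_centralizer_singleton_iff.1 hg).zpow_right i).eq
  have hAc : IsComponent (A.subgroupOf C) :=
    ⟨((Subgroup.normal_subgroupOf_iff_le_normalizer hAC).2 hCN).isSubnormal,
      isQuasisimple_congr (Subgroup.subgroupOfEquivOfLe hAC).symm hAq⟩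
  have hL2 : pLayer 2 G ≤ layer G := CfsgLib.LBalance.pLayer_two_le_layer (by
    rw [hO]; exact Subgroup.commutator_bot_right _)
  have hAE : A ≤ layer G := (ComponentTrichotomy.le_pLayer_two hFT ht hAC hAc).trans hL2
  have htt : t * t = 1 := by rw [← pow_two, ← ht, pow_orderOf_eq_one]
  obtain ⟨D, hD, hcase⟩ := CfsgLib.LBalance.exists_component_of_le_layer htt hAE hAC hAc
  set D' := D.map (MulAut.conj t).toMonoidHom with hD'
  -- two general facts, once `U` is found
  have gen : ∀ U : Subgroup G, A ≤ U → ¬ U ≤ Subgroup.normalizer (A : Set G) →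
      (∀ J : Subgroup G, IsComponent J → ¬ ∀ j ∈ J, ∀ u ∈ U, u * j = j * u) ∧
        ∀ x : G, U.Normal → (∀ u ∈ U, u * x = x * u) → x = 1 := by
    intro U hAU hUN
    have hsmall : ∀ W : Subgroup G, (∀ w ∈ W, ∀ u ∈ U, u * w = w * u) → Odd (Nat.card W) := by
      intro W hW
      refine (Nat.even_or_odd _).resolve_left fun he => hUN fun u hu => key W (fun w hw => ?_) he u
        fun w hw => hW w hw u hu
      exact Subgroup.mem_centralizer_iff.2 fun a ha => hW w hw a (hAU ha)
    refine ⟨fun J hJ hcomm => ?_, fun x hUn hx => ?_⟩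
    · exact not_isSolvable_of_isQuasisimple hJ.2 (hFT (hsmall J hcomm))
    · haveI := hUn
      have h1 : Subgroup.centralizer (U : Set G) ≤ oddCore G :=
        CfsgLib.Constrained.le_pPrimeCore inferInstance
          (Nat.coprime_two_right.2 (hsmall _ fun w hw u hu => Subgroup.mem_centralizer_iff.1 hw u hu))
      exact Subgroup.mem_bot.1 (hO ▸ h1 (Subgroup.mem_centralizer_iff.2 hx))
  haveI hEn : (layer G).Normal := inferInstance
  have hcommJ : ∀ {J L : Subgroup G}, IsComponent J → IsComponent L → J ≠ L → ∀ j ∈ J, ∀ l ∈ L,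
      l * j = j * l := fun hJ hL hne j hj l hl =>
    (commute_of_commutator_eq_bot (commutator_eq_bot_of_ne hJ hL hne) hj hl).symm
  have hnab : ¬ IsMulCommutative D := fun hc => by
    haveI := hc
    refine not_commutator_self_eq_bot hD ?_
    rw [eq_bot_iff, Subgroup.commutator_le]
    intro a ha b hb
    rw [Subgroup.mem_bot, commutatorElement_eq_one_iff_mul_comm]
    exact congrArg Subtype.val (mul_comm' (⟨a, ha⟩ : D) ⟨b, hb⟩)
  -- `D` is simple as soon as its centre is trivial
  have hsimple : (∀ z ∈ D, (∀ d ∈ D, d * z = z * d) → z = 1) → IsSimpleGroup D := by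
    intro hz
    have hbot : Subgroup.center D = ⊥ := (Subgroup.eq_bot_iff_forall _).2 fun z hzc =>
      Subtype.ext (hz z z.2 fun d hd => congrArg Subtype.val (Subgroup.mem_center_iff.1 hzc ⟨d, hd⟩))
    haveI := hD.2.2
    haveI : Nontrivial D := (Subgroup.nontrivial_iff_ne_bot D).2 (ne_bot_of_isComponent hD)
    exact IsSimpleGroup.isSimpleGroup_of_surjective
      ((QuotientGroup.quotientMulEquivOfEq hbot).trans QuotientGroup.quotientBot).toMonoidHom
      (MulEquiv.surjective _)
  rcases hcase with hAD | ⟨hne, hdiag⟩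
  · by_cases hAeq : A = D
    · -- (i)
      refine Or.inl ⟨fun a ha g => ?_⟩
      by_contra hag
      have hg : A.map (MulAut.conj g).toMonoidHom ≠ A := fun e => hag (e ▸ ⟨a, ha, rfl⟩)
      exact hnc g hg (commutator_eq_bot_of_ne (hAeq ▸ hD) (isComponent_conj (hAeq ▸ hD) g) (Ne.symm hg))
    refine Or.inr (Or.inr ?_)
    have hDN : ¬ D ≤ Subgroup.normalizer (A : Set G) := fun h => hAeq (eq_of_normal_le hD.2 hAq hAD h)
    obtain ⟨hJ, hcent⟩ := gen D hAD hDN
    have hE : layer G = D := le_antisymm (layer_le fun J hJc => by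
      by_contra hle
      exact hJ J hJc (hcommJ hJc hD fun e => hle e.le)) (le_layer hD)
    rw [hE]
    exact ⟨hAD, hsimple fun z hz hzc => hcent z (hE ▸ hEn) hzc, hnab⟩
  · -- (ii)
    refine Or.inr (Or.inl ⟨D, ?_⟩)
    have hcm := commutator_eq_bot_of_ne hD (isComponent_conj hD t) (Ne.symm hne)
    have hcomm : ∀ a ∈ D, ∀ b ∈ D', a * b = b * a := fun a ha b hb =>
      commute_of_commutator_eq_bot hcm ha hb
    set U := D ⊔ D' with hU
    have hAU : A ≤ U := fun a ha => by
      obtain ⟨d, hd, rfl⟩ := hdiag a ha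
      exact Subgroup.mul_mem_sup hd ⟨d, hd, rfl⟩
    obtain ⟨π, hπ, hker, hrC, -⟩ := Cfsg.Agent.S1314.result t ht D (perfect_commutator hD.2) hcm
    have hAπ : A ≤ π.range := fun a ha => by
      obtain ⟨d, hd, rfl⟩ := hdiag a ha
      exact ⟨⟨d, hd⟩, hπ _⟩
    haveI : Nontrivial π.range := by
      rw [Subgroup.nontrivial_iff_ne_bot]
      exact fun h => ne_bot_of_quasisimple hAq (le_bot_iff.1 (h ▸ hAπ))
    have hAr : A = π.range := eq_of_normal_le
      (CfsgLib.Cores.isQuasisimple_of_surjective hD.2 π.rangeRestrict π.rangeRestrict_surjective)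
      hAq hAπ (hrC.trans hCN)
    have hUN : ¬ U ≤ Subgroup.normalizer (A : Set G) := by
      intro h
      have hDN : D ≤ Subgroup.normalizer (A : Set G) := le_sup_left.trans h
      refine hnab ⟨⟨fun d x => ?_⟩⟩
      haveI := hD.2.1
      -- conjugation by `d` is trivial modulo the centre
      let α : D ≃* D := MulAut.conj d
      refine mul_inv_eq_iff_eq_mul.1 (Cfsg.Agent.S1304.result (X := D) Group.IsPerfect.commutator_eq_top α
        (fun x => ?_) x)
      have hx : (x : G) * (t * x * t⁻¹) ∈ A := hAr ▸ ⟨x, hπ x⟩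
      obtain ⟨y, hy, hye⟩ := hdiag _ ((Subgroup.mem_normalizer_iff.1 (hDN d.2) _).1 hx)
      have hdt : (d : G) * (t * x * t⁻¹) = (t * x * t⁻¹) * d := hcomm d d.2 _ ⟨x, x.2, rfl⟩
      have h1 : (d : G) * x * (d : G)⁻¹ * (t * x * t⁻¹) = y * (t * y * t⁻¹) := by
        rw [← hye]
        calc (d : G) * x * (d : G)⁻¹ * (t * x * t⁻¹)
            = d * x * ((d : G)⁻¹ * ((t * x * t⁻¹) * d)) * (d : G)⁻¹ := by group
          _ = d * x * ((d : G)⁻¹ * (d * (t * x * t⁻¹))) * (d : G)⁻¹ := by rw [hdt]
          _ = _ := by group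
      set u := y⁻¹ * ((d : G) * x * (d : G)⁻¹) with hu
      have huD : u ∈ D := mul_mem (inv_mem hy) (mul_mem (mul_mem d.2 x.2) (inv_mem d.2))
      have hu' : u = (t * y * t⁻¹) * (t * x * t⁻¹)⁻¹ := by
        rw [eq_mul_inv_iff_mul_eq, hu, mul_assoc, h1, inv_mul_cancel_left]
      have huD' : u ∈ D' := hu' ▸ mul_mem ⟨y, hy, rfl⟩ (inv_mem ⟨x, x.2, rfl⟩)
      have hu2 : t⁻¹ * u * t = y * (x : G)⁻¹ := by rw [hu']; group
      have hcen : ∀ v ∈ D, v ∈ D' → ∀ e ∈ D, e * v = v * e := fun v _ hv' e he => hcomm e he v hv'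
      have hti : t⁻¹ = t := inv_eq_of_mul_eq_one_right htt
      have hyx : y * (x : G)⁻¹ ∈ D' := by
        rw [← hu2, hti]
        exact ⟨u, huD, by show t * u * t⁻¹ = t * u * t; rw [hti]⟩
      refine Subgroup.mem_center_iff.2 fun e => Subtype.ext ?_
      show (e : G) * ((d : G) * x * (d : G)⁻¹ * (x : G)⁻¹) = (d : G) * x * (d : G)⁻¹ * (x : G)⁻¹ * e
      have he1 : (d : G) * x * (d : G)⁻¹ * (x : G)⁻¹ = y * u * (x : G)⁻¹ := by rw [hu]; group
      have he2 : y * u * (x : G)⁻¹ = u * (y * (x : G)⁻¹) := by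
        rw [hcen u huD huD' y hy, mul_assoc]
      rw [he1, he2, ← mul_assoc, hcen u huD huD' e e.2, mul_assoc,
        hcen _ (mul_mem hy (inv_mem x.2)) hyx e e.2, ← mul_assoc]
    obtain ⟨hJ, hcent⟩ := gen U hAU hUN
    have hDlay : ∀ J : Subgroup G, IsComponent J → J = D ∨ J = D' := fun J hJc => by
      by_contra! hne'
      refine hJ J hJc fun j hj => ?_
      intro u hu
      have : U ≤ Subgroup.centralizer ({j} : Set G) := sup_le
        (fun l hl => Subgroup.mem_centralizer_singleton_iff.2 (hcommJ hJc hD hne'.1 j hj l hl))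
        (fun l hl => Subgroup.mem_centralizer_singleton_iff.2
          (hcommJ hJc (isComponent_conj hD t) hne'.2 j hj l hl))
      exact Subgroup.mem_centralizer_singleton_iff.1 (this hu)
    have hE : U = layer G := le_antisymm (sup_le (le_layer hD) (le_layer (isComponent_conj hD t)))
      (layer_le fun J hJc => by
        rcases hDlay J hJc with rfl | rfl
        · exact le_sup_left
        · exact le_sup_right)
    haveI hUn : U.Normal := hE ▸ hEn
    have hcentU : ∀ x : G, (∀ d ∈ D, d * x = x * d) → (∀ d ∈ D', d * x = x * d) → x = 1 := by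
      intro x h1 h2
      refine hcent x hUn fun u hu => ?_
      have : U ≤ Subgroup.centralizer ({x} : Set G) := sup_le
        (fun d hd => Subgroup.mem_centralizer_singleton_iff.2 (h1 d hd))
        (fun d hd => Subgroup.mem_centralizer_singleton_iff.2 (h2 d hd))
      exact Subgroup.mem_centralizer_singleton_iff.1 (this hu)
    have hZ : ∀ z ∈ D, (∀ d ∈ D, d * z = z * d) → z = 1 := fun z hz hzc =>
      hcentU z hzc fun d hd => (hcomm z hz d hd).symm
    have hinj : Function.Injective π := by
      rw [← MonoidHom.ker_eq_bot_iff]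
      refine (Subgroup.eq_bot_iff_forall _).2 fun x hx => Subtype.ext ?_
      exact hZ x x.2 fun d hd => congrArg Subtype.val (Subgroup.mem_center_iff.1 (hker hx) ⟨d, hd⟩)
    refine ⟨hsimple hZ, hnab, ⟨(MonoidHom.ofInjective hinj).trans (MulEquiv.subgroupCongr hAr.symm)⟩,
      hcomm, ?_, hE, ?_⟩
    · refine (Subgroup.eq_bot_iff_forall _).2 fun z hz => ?_
      exact hZ z hz.1 fun d hd => hcomm d hd z hz.2
    -- the centralizer is `⟨t⟩`
    refine le_antisymm (fun k hk => ?_) (Subgroup.zpowers_le.2 htA)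
    have hone : ∀ k : G, k ∈ K → D.map (MulAut.conj k).toMonoidHom = D → k = 1 := by
      intro k hk hkD
      have hkD' : D'.map (MulAut.conj k).toMonoidHom = D' := by
        refine ((hDlay _ (isComponent_conj (isComponent_conj hD t) k)).resolve_left fun e => ?_)
        refine hne ?_
        apply Subgroup.map_injective (f := (MulAut.conj k).toMonoidHom) (MulAut.conj k).injective
        exact e.trans hkD.symm
      have hkN : k ∈ Subgroup.normalizer (D : Set G) := by
        rw [Subgroup.mem_normalizer_iff_map_conj_eq]; exact hkD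
      have hkN' : k ∈ Subgroup.normalizer (D' : Set G) := by
        rw [Subgroup.mem_normalizer_iff_map_conj_eq]; exact hkD'
      have hfix : ∀ d ∈ D, k * (d * (t * d * t⁻¹)) * k⁻¹ = d * (t * d * t⁻¹) := fun d hd => by
        have hmem : d * (t * d * t⁻¹) ∈ A := hAr ▸ ⟨⟨d, hd⟩, hπ _⟩
        rw [← Subgroup.mem_centralizer_iff.1 hk _ hmem, mul_inv_cancel_right]
      have hkc := CfsgLib.LBalance.conj_eq_of_commute_diag hD hne hkN hkN' hfix
      refine hcentU k (fun d hd => Subgroup.mem_centralizer_iff.1 hkc d hd) ?_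
      rintro _ ⟨d, hd, rfl⟩
      show t * d * t⁻¹ * k = k * (t * d * t⁻¹)
      have h1 := hfix d hd
      have h2 := Subgroup.mem_centralizer_iff.1 hkc d hd
      rw [show k * (d * (t * d * t⁻¹)) * k⁻¹ = k * d * (t * d * t⁻¹) * k⁻¹ by group, ← h2,
        mul_assoc d k, mul_assoc d] at h1
      exact (mul_inv_eq_iff_eq_mul.1 (mul_left_cancel h1)).symm
    rcases hDlay _ (isComponent_conj hD k) with h | h
    · rw [hone k hk h]; exact one_mem _
    have hti : t⁻¹ = t := inv_eq_of_mul_eq_one_right htt
    have hcomp : ∀ (a b : G) (H : Subgroup G), H.map (MulAut.conj (a * b)).toMonoidHom =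
        (H.map (MulAut.conj b).toMonoidHom).map (MulAut.conj a).toMonoidHom := fun a b H => by
      rw [Subgroup.map_map]
      congr 1
      ext x
      simp [mul_assoc]
    have hD2 : D'.map (MulAut.conj t).toMonoidHom = D := by
      rw [hD', ← hcomp, htt]
      ext x
      simp
    have hswap : D.map (MulAut.conj (k * t)).toMonoidHom = D := by
      rw [hcomp]
      refine (hDlay _ (isComponent_conj (isComponent_conj hD t) k)).resolve_right fun e => hne ?_
      apply Subgroup.map_injective (f := (MulAut.conj k).toMonoidHom) (MulAut.conj k).injective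
      exact e.trans h.symm
    have := hone (k * t) (mul_mem hk htA) hswap
    rw [eq_inv_of_mul_eq_one_left this, hti]
    exact Subgroup.mem_zpowers t

end CfsgLib.OddCons.StandardTrichotomy
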