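import Cfsg.Agent.OddStep.Interface
import Cfsg.Agent.Huppert.Cases
import Cfsg.Agent.Fitting.Join
import Cfsg.Agent.Solvable.CoprimeIndex
import Mathlib.FieldTheory.Fixed
import Mathlib.FieldTheory.Finite.Basic
import Mathlib.NumberTheory.Multiplicity

/-!
# Odd order transitive linear groups

A group of odd order transitive on the non-zero vectors of an elementary abelian group has cyclic,
fixed-point-free Fitting subgroup containing its derived subgroup (given the odd order theorem).
-/

set_option autoImplicit false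

open Cfsg

namespace CfsgLib.OddCons.TransLinear

universe u v

/-- The numerical obstruction to a field automorphism inside the Fitting subgroup. -/
theorem geom_gt {s m : ℕ} (hs : 3 ≤ s) (hm : 2 ≤ m) :
    s * s * m < 2 ^ (m * (s - 1)) + 2 ^ m + 1 := by
  obtain ⟨t, rfl⟩ : ∃ t, s = t + 1 := ⟨s - 1, by omega⟩
  rw [Nat.add_sub_cancel]
  set k := m * t with hk
  have hk4 : 4 ≤ k := le_trans (show 4 ≤ 2 * 2 by norm_num) (Nat.mul_le_mul hm (by omega))
  rcases Nat.lt_or_ge k 5 with h | h
  · have : m = 2 ∧ t = 2 := by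
      constructor <;> nlinarith
    obtain ⟨rfl, rfl⟩ := this
    norm_num [hk]
  · have h1 : ∀ j, 5 ≤ j → 9 * j * j < 8 * 2 ^ j := by
      intro j hj
      induction j, hj using Nat.le_induction with
      | base => norm_num
      | succ j hj ih => rw [pow_succ]; nlinarith
    have h2 := h1 k h
    have h3 : (t + 1) * (t + 1) * m * 8 ≤ 9 * k * k := by
      have h4 : (t + 1) * (t + 1) * 4 ≤ 9 * (t * t) := by nlinarith
      calc (t + 1) * (t + 1) * m * 8 = (t + 1) * (t + 1) * 4 * (2 * m) := by ring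
        _ ≤ 9 * (t * t) * (m * m) := Nat.mul_le_mul h4 (Nat.mul_le_mul_right m hm)
        _ = 9 * k * k := by rw [hk]; ring
    have : 0 < 2 ^ m := by positivity
    nlinarith

/-- The `s`-part of `(Q^s - 1)/(Q - 1)` is at most `s`. -/
theorem geom_part {s Q a : ℕ} [hs : Fact s.Prime] (hs2 : s ≠ 2) (hQ : 2 ≤ Q) :
    Nat.gcd (s ^ a) (∑ i ∈ Finset.range s, Q ^ i) ∣ s ∧
      (¬ s ∣ Q - 1 → Nat.gcd (s ^ a) (∑ i ∈ Finset.range s, Q ^ i) = 1) := by
  have hsp : s.Prime := hs.out
  set M := ∑ i ∈ Finset.range s, Q ^ i with hM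
  have hMQ : M * (Q - 1) = Q ^ s - 1 := by
    rw [hM, Nat.geomSum_eq hQ, Nat.div_mul_cancel (Nat.sub_one_dvd_pow_sub_one Q s)]
  have hM0 : 0 < M := by
    have : 2 ^ s ≤ Q ^ s := Nat.pow_le_pow_left hQ s
    have := Nat.lt_two_pow_self (n := s)
    have := hsp.two_le
    rcases Nat.eq_zero_or_pos M with h | h
    · rw [h, zero_mul] at hMQ; omega
    · exact h
  have hfermat : s ∣ M → s ∣ Q - 1 := by
    intro h
    have h1 : s ∣ Q ^ s - 1 := hMQ ▸ h.mul_right _
    rw [← CharP.cast_eq_zero_iff (ZMod s) s, Nat.cast_sub (Nat.one_le_pow _ _ (by omega)), Nat.cast_pow,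
      ZMod.pow_card, ← Nat.cast_sub (show 1 ≤ Q by omega)] at h1
    exact (CharP.cast_eq_zero_iff (ZMod s) s _).1 h1
  obtain ⟨j, -, hj⟩ := (Nat.dvd_prime_pow hsp).1 (Nat.gcd_dvd_left (s ^ a) M)
  have hjM : s ^ j ∣ M := hj ▸ Nat.gcd_dvd_right _ _
  rw [hj]
  refine ⟨?_, fun hnd => ?_⟩
  · rcases Nat.lt_or_ge j 2 with h | h
    · exact (pow_dvd_pow s (show j ≤ 1 by omega)).trans (by rw [pow_one])
    · exfalso
      have h1 : s ∣ Q - 1 := hfermat ((dvd_pow_self s (by omega)).trans hjM)
      have h2 : ¬ s ∣ Q := fun hd => hsp.not_dvd_one (by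
        have := Nat.dvd_sub hd h1
        rwa [show Q - (Q - 1) = 1 by omega] at this)
      have hpad := padicValNat.pow_sub_pow (p := s) (hsp.odd_of_ne_two hs2) (x := Q) (y := 1)
        (by omega) h1 h2 (n := s) hsp.ne_zero
      rw [one_pow, ← hMQ, padicValNat.mul hM0.ne' (by omega), padicValNat_self] at hpad
      have := (padicValNat_dvd_iff_le (p := s) hM0.ne').1 ((pow_dvd_pow s h).trans hjM)
      omega
  · rcases j with _ | j
    · rw [pow_zero]
    · exact absurd (hfermat ((dvd_pow_self s (by omega)).trans hjM)) hnd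

/-- The semilinear case. -/
theorem of_semilinear {D : Type u} {E : Type v} {F : Type*} [Group D] [Finite D] [AddCommGroup E]
    [DistribMulAction D E] [FaithfulSMul D E] [Field F] [Fintype F]
    (e : E ≃+ F) (hsl : ∀ d : D, ∃ (a : F) (σ : F ≃+* F), ∀ v : E, e (d • v) = a * σ (e v))
    (hodd : Odd (Nat.card D)) {N : ℕ} (hF : Nat.card F = 2 ^ N)
    (htrans : ∀ a b : E, a ≠ 0 → b ≠ 0 → ∃ d : D, d • a = b) :
    IsCyclic ↥(Cfsg.fittingSubgroup D) ∧
      (∀ g ∈ Cfsg.fittingSubgroup D, g ≠ 1 → ∀ a : E, g • a = a → a = 0) ∧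
      commutator D ≤ Cfsg.fittingSubgroup D := by
  classical
  choose α σ hσ using hsl
  have hval : ∀ d : D, e (d • e.symm 1) = α d := fun d => by
    rw [hσ d, e.apply_symm_apply, map_one, mul_one]
  have hα0 : ∀ d : D, α d ≠ 0 := fun d h => by
    have h1 := hval d
    rw [h, AddEquivClass.map_eq_zero_iff] at h1
    have h2 : e.symm (1 : F) = 0 := by simpa using congrArg (d⁻¹ • ·) h1
    exact one_ne_zero (by simpa using congrArg e h2 : (1 : F) = 0)
  have hmulα : ∀ d d' : D, α (d * d') = α d * σ d (α d') := fun d d' => by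
    rw [← hval (d * d'), mul_smul, hσ d, hval]
  have hmulσ : ∀ d d' : D, σ (d * d') = σ d * σ d' := fun d d' => by
    ext x
    have h := hσ (d * d') (e.symm x)
    rw [mul_smul, hσ d, hσ d', e.apply_symm_apply, map_mul, hmulα, ← mul_assoc] at h
    exact (mul_left_cancel₀ (mul_ne_zero (hα0 d) ((map_ne_zero (σ d)).2 (hα0 d'))) h).symm
  let τ : D →* (F ≃+* F) := MonoidHom.mk' σ hmulσ
  have hautcomm : ∀ f g : F ≃+* F, f * g = g * f := by
    intro f g
    ext x
    show f (g x) = g (f x)
    by_cases hx : x = 0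
    · simp [hx]
    · obtain ⟨z, hz⟩ := IsCyclic.exists_generator (α := Fˣ)
      have hpow : ∀ h : F ≃+* F, ∃ i : ℤ, h (z : F) = ((z ^ i : Fˣ) : F) := fun h => by
        obtain ⟨i, hi⟩ := Subgroup.mem_zpowers_iff.1 (hz (Units.map (h : F →* F) z))
        exact ⟨i, by rw [hi]; rfl⟩
      obtain ⟨k, hk⟩ := Subgroup.mem_zpowers_iff.1 (hz (Units.mk0 x hx))
      have hxk : x = ((z ^ k : Fˣ) : F) := by rw [hk]; rfl
      obtain ⟨i, hi⟩ := hpow f
      obtain ⟨j, hj⟩ := hpow g
      rw [hxk]
      simp only [Units.val_zpow_eq_zpow_val, map_zpow₀, hi, hj]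
      rw [← zpow_mul, ← zpow_mul, ← zpow_mul, ← zpow_mul]
      congr 1
      ring
  set K := τ.ker with hKdef
  have hKσ : ∀ k ∈ K, σ k = 1 := fun k hk => hk
  let κ : K →* F :=
    { toFun := fun k => α k
      map_one' := by
        have h := hmulα 1 1
        rw [mul_one, hKσ 1 K.one_mem, RingAut.one_apply] at h
        exact (mul_eq_left₀ (hα0 1)).1 h.symm
      map_mul' := fun k k' => by
        show α ((k : D) * k') = α k * α k'
        rw [hmulα, hKσ k k.2, RingAut.one_apply] }
  haveI : Finite (F ≃+* F) := Finite.of_injective (fun f => (f : F → F)) DFunLike.coe_injective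
  have hκinj : Function.Injective κ := by
    intro k k' h
    apply Subtype.ext
    refine FaithfulSMul.eq_of_smul_eq_smul (α := E) fun v => e.injective ?_
    rw [hσ, hσ, hKσ k k.2, hKσ k' k'.2, show α k = α k' from h]
  haveI hKcyc : IsCyclic K := isCyclic_of_subgroup_isDomain κ hκinj
  haveI : Group.IsNilpotent K := by
    letI := IsCyclic.commGroup (α := K)
    exact CommGroup.isNilpotent
  haveI hFn : (Cfsg.fittingSubgroup D).Normal := CfsgLib.Fitting.fittingSubgroup_normal D
  have hKF : K ≤ Cfsg.fittingSubgroup D :=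
    CfsgLib.Fitting.le_fittingSubgroup (MonoidHom.normal_ker τ) inferInstance
  haveI hFnil : Group.IsNilpotent (Cfsg.fittingSubgroup D) :=
    CfsgLib.Fitting.fittingSubgroup_isNilpotent D
  suffices hFK : Cfsg.fittingSubgroup D ≤ K by
    have heq := le_antisymm hFK hKF
    rw [heq]
    refine ⟨hKcyc, fun g hg hg1 a ha => ?_, ?_⟩
    · by_contra ha0
      have h := hσ g a
      rw [ha, hKσ g hg, RingAut.one_apply] at h
      have hα1 : α g = 1 := by
        have hne : e a ≠ 0 := (AddEquivClass.map_ne_zero_iff).2 ha0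
        exact mul_right_cancel₀ hne (h.symm.trans (one_mul _).symm)
      refine hg1 (congrArg Subtype.val (hκinj (a₁ := ⟨g, hg⟩) (a₂ := 1) ?_))
      rw [map_one]
      exact hα1
    · rw [commutator_def, Subgroup.commutator_le]
      intro a _ b _
      rw [hKdef, MonoidHom.mem_ker, map_commutatorElement, commutatorElement_eq_one_iff_commute]
      exact hautcomm _ _
  intro x hxF
  by_contra hx
  have hτx : τ x ≠ 1 := hx
  obtain ⟨s, hs, hsd⟩ := Nat.exists_prime_and_dvd (n := orderOf (τ x))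
    (fun h => hτx (orderOf_eq_one_iff.1 h))
  haveI := Fact.mk hs
  set x₁ := x ^ (orderOf (τ x) / s) with hx₁
  have hτ1 : orderOf (τ x₁) = s := by
    rw [hx₁, map_pow, orderOf_pow_orderOf_div (orderOf_pos _).ne' hsd]
  have hsD : s ∣ Nat.card D := hτ1 ▸ (orderOf_map_dvd τ x₁).trans (orderOf_dvd_natCard x₁)
  have hs2 : s ≠ 2 := fun h => by
    have := Nat.odd_iff.1 hodd
    rw [h] at hsD
    omega
  set w := ordCompl[s] (orderOf x₁) with hw
  set y := x₁ ^ w with hy
  have hyF : y ∈ Cfsg.fittingSubgroup D := pow_mem (pow_mem hxF _) _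
  have hcop : s.Coprime w := (hs.coprime_iff_not_dvd).2 (Nat.not_dvd_ordCompl hs (orderOf_pos _).ne')
  have hτy : orderOf (τ y) = s := by
    rw [hy, map_pow, Nat.Coprime.orderOf_pow (by rw [hτ1]; exact hcop), hτ1]
  have hyord : orderOf y = s ^ (orderOf x₁).factorization s := by
    rw [hy, orderOf_pow_of_dvd (Nat.ordCompl_pos s (orderOf_pos _).ne').ne' (Nat.ordCompl_dvd _ _)]
    exact Nat.div_eq_of_eq_mul_left (Nat.ordCompl_pos s (orderOf_pos _).ne')
      (Nat.ordProj_mul_ordCompl_eq_self _ s).symm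
  -- the fixed field of `y`
  set Z := Subgroup.zpowers (τ y) with hZ
  letI : Fintype Z := Fintype.ofFinite Z
  let F0 := FixedPoints.subfield Z F
  letI : Fintype F0 := Fintype.ofFinite F0
  set Q := Nat.card F0 with hQdef
  have hFQ : Nat.card F = Q ^ s := by
    rw [Module.natCard_eq_pow_finrank (K := F0) (V := F), FixedPoints.finrank_eq_card Z F,
      ← Nat.card_eq_fintype_card (α := Z), Nat.card_zpowers, hτy]
  have hQ2 : 2 ≤ Q := Finite.one_lt_card
  obtain ⟨m, -, hm⟩ : ∃ m, m ≤ N ∧ Q = 2 ^ m := (Nat.dvd_prime_pow Nat.prime_two).1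
    (by rw [← hF, hFQ]; exact dvd_pow_self Q hs.ne_zero)
  -- elements of `K` of order prime to `s` lie in the fixed field
  have hfixed : ∀ k : D, k ∈ K → (orderOf k).Coprime s → α k ^ (Q - 1) = 1 := by
    intro k hk hks
    have hcomm : k * y = y * k := by
      have := CfsgLib.Solvable.commute_of_coprime_orderOf (G := Cfsg.fittingSubgroup D)
        (x := ⟨k, hKF hk⟩) (y := ⟨y, hyF⟩)
        (by rw [Subgroup.orderOf_mk, Subgroup.orderOf_mk, hyord]; exact hks.pow_right _)
      exact congrArg Subtype.val this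
    have h : σ y (α k) = α k := by
      have h1 := hmulα y k
      rw [← hcomm, hmulα, hKσ k hk, RingAut.one_apply, mul_comm] at h1
      exact (mul_left_cancel₀ (hα0 y) h1).symm
    have hmem : α k ∈ F0 := fun z => by
      have hle : Z ≤ MulAction.stabilizer (F ≃+* F) (α k) := Subgroup.zpowers_le.2 h
      exact hle z.2
    have := FiniteField.pow_card_sub_one_eq_one (⟨α k, hmem⟩ : F0)
      (fun h0 => hα0 k (congrArg Subtype.val h0))
    rw [← Nat.card_eq_fintype_card, ← hQdef] at this
    exact congrArg Subtype.val this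
  -- the order of `K`
  obtain ⟨k₀, hk₀⟩ := IsCyclic.exists_ofOrder_eq_natCard (α := K)
  set c := Nat.card K with hc
  have hcF : c ∣ Q ^ s - 1 := by
    rw [← hk₀, orderOf_dvd_iff_pow_eq_one, ← hFQ, Nat.card_eq_fintype_card]
    apply hκinj
    rw [map_pow, map_one]
    exact FiniteField.pow_card_sub_one_eq_one _ (hα0 k₀)
  set M := ∑ i ∈ Finset.range s, Q ^ i with hM
  have hMQ : M * (Q - 1) = Q ^ s - 1 := by
    rw [hM, Nat.geomSum_eq hQ2, Nat.div_mul_cancel (Nat.sub_one_dvd_pow_sub_one Q s)]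
  have hcs : c ∣ s ^ c.factorization s * (Q - 1) := by
    have hb := hfixed ((k₀ : D) ^ (s ^ c.factorization s)) (K.pow_mem k₀.2 _) (by
      rw [orderOf_pow_of_dvd (pow_ne_zero _ hs.ne_zero) (by
        rw [Subgroup.orderOf_coe, hk₀]; exact Nat.ordProj_dvd c s), Subgroup.orderOf_coe, hk₀]
      exact ((hs.coprime_iff_not_dvd).2 (Nat.not_dvd_ordCompl hs Nat.card_pos.ne')).symm)
    conv_lhs => rw [← hk₀]
    rw [orderOf_dvd_iff_pow_eq_one, pow_mul]
    apply hκinj
    rw [map_pow, map_one]
    exact hb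
  have hcd : c ∣ Nat.gcd (s ^ c.factorization s) M * (Q - 1) := by
    rw [← Nat.gcd_mul_right]
    exact Nat.dvd_gcd hcs (hMQ ▸ hcF)
  obtain ⟨hg1, hg2⟩ := geom_part (s := s) (Q := Q) (a := c.factorization s) hs2 hQ2
  -- transitivity
  set T := τ.range with hT
  letI : Fintype T := Fintype.ofFinite T
  have hDcard : Nat.card D = c * Nat.card T := by
    rw [hc, ← τ.ker.card_mul_index, Subgroup.index_ker]
  have hle : Q ^ s - 1 ≤ c * Nat.card T := by
    rw [← hDcard, ← hFQ]
    haveI : Finite E := Finite.of_equiv F e.symm.toEquiv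
    set v := e.symm (1 : F) with hv
    have hv0 : v ≠ 0 := fun h => one_ne_zero (by simpa [hv] using congrArg e h : (1 : F) = 0)
    have hsub : ({0}ᶜ : Set E) ⊆ Set.range (fun d : D => d • v) := fun b hb => htrans v b hv0 hb
    have h1 := Set.ncard_le_ncard hsub (Set.toFinite _)
    rw [Set.ncard_compl, Set.ncard_singleton, Nat.card_congr e.toEquiv] at h1
    refine h1.trans ?_
    rw [← Set.image_univ, ← Set.ncard_univ]
    exact Set.ncard_image_le (Set.toFinite _)
  have hTle : Nat.card T ≤ m * s := by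
    have h1 : Nat.card F = Nat.card (FixedPoints.subfield T F) ^ Nat.card T := by
      rw [Module.natCard_eq_pow_finrank (K := FixedPoints.subfield T F) (V := F),
        FixedPoints.finrank_eq_card T F, Nat.card_eq_fintype_card (α := T)]
    rw [← Nat.pow_le_pow_iff_right (le_refl 2), pow_mul, ← hm, ← hFQ, h1]
    exact Nat.pow_le_pow_left Finite.one_lt_card _
  have hT0 : 0 < Nat.card T := Nat.card_pos
  have hs3 : 3 ≤ s := by have := hs.two_le; omega
  have hm0 : m ≠ 0 := fun h => by rw [h, pow_zero] at hm; omega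
  by_cases hm1 : m = 1
  · rw [hm1, pow_one] at hm
    have hgd := hg2 (by rw [hm]; exact hs.not_dvd_one)
    rw [hgd, hm] at hcd
    have hc1 : c = 1 := Nat.dvd_one.1 (by simpa using hcd)
    rw [hc1, one_mul, hm] at hle
    rw [hm1, one_mul] at hTle
    have := Nat.lt_two_pow_self (n := s)
    have h8 : 2 * s < 2 ^ s := by
      obtain ⟨t, rfl⟩ : ∃ t, s = t + 1 := ⟨s - 1, by omega⟩
      have h2t := Nat.lt_two_pow_self (n := t - 1)
      rw [pow_succ]
      have : 2 ^ t = 2 ^ (t - 1) * 2 := by rw [← pow_succ]; congr 1; omega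
      omega
    omega
  · have hcle : c ≤ s * (Q - 1) := Nat.le_of_dvd (Nat.mul_pos hs.pos (by omega))
      (hcd.trans (Nat.mul_dvd_mul_right hg1 _))
    have h1 : M * (Q - 1) ≤ s * (Nat.card T) * (Q - 1) := by
      rw [hMQ]
      refine hle.trans ((Nat.mul_le_mul_right _ hcle).trans_eq ?_)
      ring
    have h2 : M ≤ s * (m * s) :=
      (Nat.le_of_mul_le_mul_right h1 (by omega)).trans (Nat.mul_le_mul_left s hTle)
    have h3 : Q ^ (s - 1) + Q + 1 ≤ M := by
      have hsub : ({0, 1, s - 1} : Finset ℕ) ⊆ Finset.range s := by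
        intro i hi
        simp only [Finset.mem_insert, Finset.mem_singleton] at hi
        rw [Finset.mem_range]; omega
      refine le_trans (le_of_eq ?_) (Finset.sum_le_sum_of_subset hsub)
      have h0 : (0 : ℕ) ∉ ({1, s - 1} : Finset ℕ) := by simp; omega
      have h1' : (1 : ℕ) ∉ ({s - 1} : Finset ℕ) := by simp; omega
      rw [Finset.sum_insert h0, Finset.sum_insert h1', Finset.sum_singleton, pow_zero, pow_one]
      omega
    have h4 := geom_gt (s := s) (m := m) hs3 (by omega)
    rw [hm, ← pow_mul] at h3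
    rw [show s * (m * s) = s * s * m by ring] at h2
    omega

/-- A group of odd order transitive on non-zero vectors: the Fitting subgroup. -/
theorem fitting_cyclic (hFT : CfsgLib.OddStep.P0205.{u}) {D : Type u} {E : Type v} [Group D] [Finite D]
    [AddCommGroup E] [Finite E] [Nontrivial E] [DistribMulAction D E] [FaithfulSMul D E]
    (hodd : Odd (Nat.card D)) {q : ℕ} (hq : q.Prime) (hE : ∀ e : E, q • e = 0)
    (htrans : ∀ a b : E, a ≠ 0 → b ≠ 0 → ∃ d : D, d • a = b) :
    IsCyclic ↥(Cfsg.fittingSubgroup D) ∧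
      (∀ g ∈ Cfsg.fittingSubgroup D, g ≠ 1 → ∀ a : E, g • a = a → a = 0) ∧
      commutator D ≤ Cfsg.fittingSubgroup D := by
  classical
  haveI : Fact q.Prime := ⟨hq⟩
  obtain ⟨instM⟩ : Nonempty (Module (ZMod q) E) := ⟨AddCommGroup.zmodModule hE⟩
  haveI : Module.Finite (ZMod q) E := Module.Finite.of_finite
  let act : D → (E ≃ₗ[ZMod q] E) := fun d =>
    { toFun := fun x => d • x
      invFun := fun x => d⁻¹ • x
      map_add' := smul_add d
      map_smul' := fun c x => ZMod.map_smul (DistribSMul.toAddMonoidHom E d) c x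
      left_inv := fun x => inv_smul_smul d x
      right_inv := fun x => smul_inv_smul d x }
  have hmul : ∀ a b : D, act (a * b) = act a * act b := by
    intro a b
    refine LinearEquiv.ext fun x => ?_
    show (a * b) • x = act a (act b x)
    exact mul_smul a b x
  let φ : D →* (E ≃ₗ[ZMod q] E) := MonoidHom.mk' act hmul
  set H := φ.range with hH
  have ht : CfsgLib.PermGroups.FPFLinear.TransOnVectors H := fun a b ha hb => by
    obtain ⟨d, hd⟩ := htrans a b ha hb
    exact ⟨⟨φ d, d, rfl⟩, hd⟩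
  haveI : Group.IsSolvable D := hFT hodd
  have hsol : Group.IsSolvable H := Group.isSolvable_of_surjective φ.rangeRestrict_surjective
  have hcardH : Nat.card H ∣ Nat.card D := Subgroup.card_range_dvd φ
  have hdvd : q ^ Module.finrank (ZMod q) E - 1 ∣ Nat.card D :=
    (CfsgLib.Huppert.card_vectors_dvd ht).trans hcardH
  have hn : 0 < Module.finrank (ZMod q) E := Module.finrank_pos
  have hq2 : q = 2 := by
    by_contra h
    have hqo : Odd q := hq.odd_of_ne_two h
    have heven : 2 ∣ q ^ Module.finrank (ZMod q) E - 1 := by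
      have := Nat.odd_iff.1 (hqo.pow (n := Module.finrank (ZMod q) E))
      omega
    have h2 := heven.trans hdvd
    have := Nat.odd_iff.1 hodd
    omega
  have hcardE : Nat.card E = 2 ^ Module.finrank (ZMod q) E := by
    rw [Module.natCard_eq_pow_finrank (K := ZMod q) (V := E), Nat.card_zmod]
    exact congrArg (· ^ Module.finrank (ZMod q) E) hq2
  rcases CfsgLib.Huppert.semilinear_or_exceptional ht hsol with ⟨F, iF, iFF, e, hsl⟩ | hex
  · letI := iF
    letI := iFF
    refine of_semilinear (N := Module.finrank (ZMod q) E) e (fun d => ?_) hodd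
      ((Nat.card_congr e.toEquiv).symm.trans hcardE) htrans
    exact hsl ⟨φ d, d, rfl⟩
  · exfalso
    rw [hcardE] at hex
    have h2 : 2 ∣ 2 ^ Module.finrank (ZMod q) E := dvd_pow_self 2 hn.ne'
    simp only [Set.mem_insert_iff, Set.mem_singleton_iff] at hex
    omega

end CfsgLib.OddCons.TransLinear
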